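import Mathlib
import Cfsg.Agent.Lib.Piwek.Core
import Cfsg.Prelude.Def_Chevalley

/-!
Isomorphisms of small permutation groups by a kernel computation: the graph of the isomorphism is a permutation
group on the disjoint union of the two sets.  Also the passage from matrix groups to permutation groups.
-/

set_option autoImplicit false

namespace Cfsg.Agent.Lib.Piwek

open Equiv

/-- a closure check without order conditions -/
def checkC (m : ℕ) (gens : List ℕ) (n : ℕ) : Bool :=
  decide (m ≤ 64) && gens.all (validB m) && closedB m gens (elemsT m gens) &&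
    nodupB (toL (elemsT m gens)) && Nat.beq (toL (elemsT m gens)).length n

section checkC

variable {m : ℕ} {gens : List ℕ} {n : ℕ}

theorem checkC_parts (h : checkC m gens n = true) :
    m ≤ 64 ∧ (∀ g ∈ gens, validB m g = true) ∧ closedB m gens (elemsT m gens) = true ∧
      nodupB (toL (elemsT m gens)) = true ∧ (toL (elemsT m gens)).length = n := by
  simp only [checkC, Bool.and_eq_true, List.all_eq_true, decide_eq_true_eq, Nat.beq_eq] at h
  obtain ⟨⟨⟨⟨h1, h2⟩, h3⟩, h4⟩, h5⟩ := h
  exact ⟨h1, h2, h3, h4, h5⟩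

theorem mem_elemsC_iff (h : checkC m gens n = true) (σ : Perm (Fin m)) :
    code σ ∈ toL (elemsT m gens) ↔ σ ∈ grp m gens := by
  obtain ⟨hm, hv, hc, -, -⟩ := checkC_parts h
  refine ⟨fun hσ => ?_, fun hσ => code_mem_of_closed hm hv hc hσ⟩
  obtain ⟨τ, hτ, he⟩ := elems_reach hm hv _ hσ
  rwa [← code_injective hm he]

theorem card_grp (h : checkC m gens n = true) : Nat.card (grp m gens) = n := by
  obtain ⟨hm, hv, hc, hn, hl⟩ := checkC_parts h
  have hnd : (toL (elemsT m gens)).Nodup := nodupB_nodup hn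
  have key : Nat.card (grp m gens) = Nat.card {c // c ∈ (toL (elemsT m gens)).toFinset} := by
    apply Nat.card_congr
    refine Equiv.ofBijective (fun x => ⟨code (x.1 : Perm (Fin m)), ?_⟩) ⟨?_, ?_⟩
    · rw [List.mem_toFinset]
      exact (mem_elemsC_iff h _).2 x.2
    · intro x y hxy
      exact Subtype.ext (code_injective hm (Subtype.mk.inj hxy))
    · rintro ⟨c, hc⟩
      rw [List.mem_toFinset] at hc
      obtain ⟨σ, hσ, rfl⟩ := elems_reach hm hv _ hc
      exact ⟨⟨σ, hσ⟩, rfl⟩
  rw [key, Nat.card_eq_fintype_card, Fintype.card_coe, List.toFinset_card_of_nodup hnd, hl]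

end checkC

/-- the action of a pair on the disjoint union -/
def theta (a b : ℕ) : Perm (Fin a) × Perm (Fin b) →* Perm (Fin (a + b)) :=
  (Equiv.permCongrHom finSumFinEquiv).toMonoidHom.comp (Equiv.Perm.sumCongrHom (Fin a) (Fin b))

theorem theta_injective (a b : ℕ) : Function.Injective (theta a b) := by
  intro x y h
  apply Equiv.Perm.sumCongrHom_injective
  exact (Equiv.permCongrHom finSumFinEquiv).injective h

theorem theta_castAdd {a b : ℕ} (s : Perm (Fin a)) (t : Perm (Fin b)) (i : Fin a) :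
    theta a b (s, t) (Fin.castAdd b i) = Fin.castAdd b (s i) := by
  have h1 : Fin.castAdd b i = finSumFinEquiv (Sum.inl i) := by simp
  rw [h1]
  simp [theta, Equiv.permCongrHom, Equiv.permCongr]

theorem theta_natAdd {a b : ℕ} (s : Perm (Fin a)) (t : Perm (Fin b)) (j : Fin b) :
    theta a b (s, t) (Fin.natAdd a j) = Fin.natAdd a (t j) := by
  have h1 : Fin.natAdd a j = finSumFinEquiv (Sum.inr j) := by simp
  rw [h1]
  simp [theta, Equiv.permCongrHom, Equiv.permCongr]

/-- the code of a pair of codes on the disjoint union -/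
def combine (a b x y : ℕ) : ℕ :=
  enc ((List.range a).map (dig x) ++ (List.range b).map (fun j => a + dig y j))

theorem dig_permOf {m c : ℕ} (h : validB m c = true) (hm : m ≤ 64) (i : Fin m) :
    ((permOf m c i : Fin m) : ℕ) = dig c i := by
  rw [← dig_code hm (permOf m c) i, code_permOf h]

theorem permOf_combine {a b x y : ℕ} (hab : a + b ≤ 64) (hx : validB a x = true) (hy : validB b y = true)
    (hc : validB (a + b) (combine a b x y) = true) :
    permOf (a + b) (combine a b x y) = theta a b (permOf a x, permOf b y) := by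
  have hd : ∀ z ∈ (List.range a).map (dig x) ++ (List.range b).map (fun j => a + dig y j), z < 64 := by
    intro z hz
    rw [List.mem_append, List.mem_map, List.mem_map] at hz
    rcases hz with ⟨i, hi, rfl⟩ | ⟨j, hj, rfl⟩
    · have := validB_lt hx ⟨i, List.mem_range.mp hi⟩
      simp only at this
      omega
    · have := validB_lt hy ⟨j, List.mem_range.mp hj⟩
      simp only at this
      omega
  ext i
  rw [dig_permOf hc hab, combine, dig_enc _ hd]
  refine Fin.addCases (fun i => ?_) (fun j => ?_) i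
  · rw [theta_castAdd]
    simp only [Fin.val_castAdd]
    rw [dig_permOf hx (by omega)]
    rw [List.getD_append _ _ _ _ (by simp)]
    simp [List.getD_eq_getElem?_getD]
  · rw [theta_natAdd]
    simp only [Fin.val_natAdd]
    rw [dig_permOf hy (by omega)]
    rw [List.getD_append_right _ _ _ _ (by simp)]
    simp [List.getD_eq_getElem?_getD]

/-- the check for the graph of an isomorphism -/
def checkGraph (a b : ℕ) (ps : List (ℕ × ℕ)) (n : ℕ) : Bool :=
  decide (a + b ≤ 64) && ps.all (fun p => validB a p.1 && validB b p.2) &&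
    checkC (a + b) (ps.map (fun p => combine a b p.1 p.2)) n &&
    (toL (elemsT (a + b) (ps.map (fun p => combine a b p.1 p.2)))).all (fun c =>
      Nat.beq c (idc (a + b)) || !((List.range a).all (fun i => Nat.beq (dig c i) i)) ) &&
    (toL (elemsT (a + b) (ps.map (fun p => combine a b p.1 p.2)))).all (fun c =>
      Nat.beq c (idc (a + b)) || !((List.range b).all (fun j => Nat.beq (dig c (a + j)) (a + j))))

theorem graph_iso {a b : ℕ} {ps : List (ℕ × ℕ)} {n : ℕ} (h : checkGraph a b ps n = true) :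
    Nonempty (grp a (ps.map Prod.fst) ≃* grp b (ps.map Prod.snd)) ∧ Nat.card (grp a (ps.map Prod.fst)) = n := by
  simp only [checkGraph, Bool.and_eq_true, List.all_eq_true, decide_eq_true_eq] at h
  obtain ⟨⟨⟨⟨hab, hv⟩, hC⟩, hA⟩, hB⟩ := h
  set joined := ps.map (fun p => combine a b p.1 p.2) with hj
  obtain ⟨hm, hvj, -, -, -⟩ := checkC_parts hC
  let S : Set (Perm (Fin a) × Perm (Fin b)) := {q | ∃ p ∈ ps, q = (permOf a p.1, permOf b p.2)}
  let A : Subgroup (Perm (Fin a) × Perm (Fin b)) := Subgroup.closure S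
  have hθ : A.map (theta a b) = grp (a + b) joined := by
    rw [MonoidHom.map_closure]
    unfold grp
    congr 1
    ext σ
    constructor
    · rintro ⟨q, ⟨p, hp, rfl⟩, rfl⟩
      have hc : combine a b p.1 p.2 ∈ joined := List.mem_map.mpr ⟨p, hp, rfl⟩
      exact ⟨_, hc, (permOf_combine hab (hv p hp).1 (hv p hp).2 (hvj _ hc)).symm⟩
    · rintro ⟨c, hc, rfl⟩
      obtain ⟨p, hp, rfl⟩ := List.mem_map.mp hc
      exact ⟨_, ⟨p, hp, rfl⟩, (permOf_combine hab (hv p hp).1 (hv p hp).2 (hvj _ hc)).symm⟩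
  have hfst : A.map (MonoidHom.fst _ _) = grp a (ps.map Prod.fst) := by
    rw [MonoidHom.map_closure]
    unfold grp
    congr 1
    ext σ
    constructor
    · rintro ⟨q, ⟨p, hp, rfl⟩, rfl⟩
      exact ⟨p.1, List.mem_map.mpr ⟨p, hp, rfl⟩, rfl⟩
    · rintro ⟨c, hc, rfl⟩
      obtain ⟨p, hp, rfl⟩ := List.mem_map.mp hc
      exact ⟨_, ⟨p, hp, rfl⟩, rfl⟩
  have hsnd : A.map (MonoidHom.snd _ _) = grp b (ps.map Prod.snd) := by
    rw [MonoidHom.map_closure]
    unfold grp
    congr 1
    ext σ
    constructor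
    · rintro ⟨q, ⟨p, hp, rfl⟩, rfl⟩
      exact ⟨p.2, List.mem_map.mpr ⟨p, hp, rfl⟩, rfl⟩
    · rintro ⟨c, hc, rfl⟩
      obtain ⟨p, hp, rfl⟩ := List.mem_map.mp hc
      exact ⟨_, ⟨p, hp, rfl⟩, rfl⟩
  have hmemA : ∀ q ∈ A, code (theta a b q) ∈ toL (elemsT (a + b) joined) := by
    intro q hq
    rw [mem_elemsC_iff hC, ← hθ]
    exact ⟨q, hq, rfl⟩
  have hone : ∀ q ∈ A, code (theta a b q) = idc (a + b) → q = 1 := by
    intro q hq he
    rw [← code_one] at he
    have := code_injective hm he
    exact theta_injective a b (by rw [this, map_one])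
  have injF : Function.Injective ((MonoidHom.fst _ _).comp A.subtype) := by
    rw [injective_iff_map_eq_one]
    rintro ⟨⟨s, t⟩, hq⟩ hs
    have hs' : s = 1 := hs
    subst hs'
    apply Subtype.ext
    apply hone _ hq
    have h1 := hA _ (hmemA _ hq)
    rw [Bool.or_eq_true] at h1
    rcases h1 with h1 | h1
    · exact Nat.beq_eq.mp h1
    · exfalso
      have h2 : (List.range a).all (fun i => Nat.beq (dig (code (theta a b (1, t))) i) i) = true := by
        rw [List.all_eq_true]
        intro i hi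
        have hi' : i < a := List.mem_range.mp hi
        have := dig_code hm (theta a b (1, t)) (Fin.castAdd b ⟨i, hi'⟩)
        rw [theta_castAdd] at this
        rw [Nat.beq_eq]
        simpa using this
      rw [h2] at h1
      exact Bool.false_ne_true h1
  have injS : Function.Injective ((MonoidHom.snd _ _).comp A.subtype) := by
    rw [injective_iff_map_eq_one]
    rintro ⟨⟨s, t⟩, hq⟩ hs
    have hs' : t = 1 := hs
    subst hs'
    apply Subtype.ext
    apply hone _ hq
    have h1 := hB _ (hmemA _ hq)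
    rw [Bool.or_eq_true] at h1
    rcases h1 with h1 | h1
    · exact Nat.beq_eq.mp h1
    · exfalso
      have h2 : (List.range b).all (fun j => Nat.beq (dig (code (theta a b (s, 1))) (a + j)) (a + j)) = true := by
        rw [List.all_eq_true]
        intro i hi
        have hi' : i < b := List.mem_range.mp hi
        have := dig_code hm (theta a b (s, 1)) (Fin.natAdd a ⟨i, hi'⟩)
        rw [theta_natAdd] at this
        rw [Nat.beq_eq]
        simpa using this
      rw [h2] at h1
      exact Bool.false_ne_true h1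
  have eF : A ≃* grp a (ps.map Prod.fst) := by
    refine (MonoidHom.ofInjective injF).trans (MulEquiv.subgroupCongr ?_)
    rw [MonoidHom.range_comp, Subgroup.range_subtype, hfst]
  have eS : A ≃* grp b (ps.map Prod.snd) := by
    refine (MonoidHom.ofInjective injS).trans (MulEquiv.subgroupCongr ?_)
    rw [MonoidHom.range_comp, Subgroup.range_subtype, hsnd]
  have eT : A ≃* grp (a + b) joined := by
    have : Function.Injective ((theta a b).comp A.subtype) :=
      (theta_injective a b).comp A.subtype_injective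
    refine (MonoidHom.ofInjective this).trans (MulEquiv.subgroupCongr ?_)
    rw [MonoidHom.range_comp, Subgroup.range_subtype, hθ]
  refine ⟨⟨eF.symm.trans eS⟩, ?_⟩
  rw [← Nat.card_congr eF.toEquiv, Nat.card_congr eT.toEquiv]
  exact card_grp hC

section matrix

variable {ι R : Type*} [Fintype ι] [DecidableEq ι] [CommRing R]

open Matrix

/-- A matrix group which permutes a finite set of vectors containing the basis embeds in a permutation group. -/
theorem closure_equiv_grp {m : ℕ} (hm : m ≤ 64) (G₀ : Set (GL ι R)) (gB : List ℕ) (S : Fin m → ι → R)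
    (hS : Function.Injective S) (hb : ∀ j, ∃ i, S i = Pi.single j 1)
    (h1 : ∀ g ∈ G₀, ∃ c ∈ gB, ∀ i, (g : Matrix ι ι R) *ᵥ S i = S (permOf m c i))
    (h2 : ∀ c ∈ gB, ∃ g ∈ G₀, ∀ i, (g : Matrix ι ι R) *ᵥ S i = S (permOf m c i)) :
    Nonempty (Subgroup.closure G₀ ≃* grp m gB) := by
  classical
  -- the relation between group elements and permutations
  let Rel : GL ι R → Perm (Fin m) → Prop := fun g σ => ∀ i, (g : Matrix ι ι R) *ᵥ S i = S (σ i)
  have rel_mul : ∀ g g' σ σ', Rel g σ → Rel g' σ' → Rel (g * g') (σ * σ') := by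
    intro g g' σ σ' h h' i
    simp only [Units.val_mul, Perm.coe_mul, Function.comp]
    rw [← Matrix.mulVec_mulVec, h', h]
  have rel_inv : ∀ g σ, Rel g σ → Rel g⁻¹ σ⁻¹ := by
    intro g σ h i
    have e := h (σ⁻¹ i)
    have e0 : σ (σ⁻¹ i) = i := σ.apply_symm_apply i
    rw [e0] at e
    rw [← e, Matrix.mulVec_mulVec]
    simp
  have rel_one : Rel 1 1 := by
    intro i
    simp
  have rel_uniq : ∀ g σ σ', Rel g σ → Rel g σ' → σ = σ' := by
    intro g σ σ' h h'
    ext i
    have := hS ((h i).symm.trans (h' i))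
    rw [this]
  have rel_ker : ∀ g g' σ, Rel g σ → Rel g' σ → g = g' := by
    intro g g' σ h h'
    apply Units.ext
    ext r j
    obtain ⟨i, hi⟩ := hb j
    have e1 := h i
    have e2 := h' i
    rw [hi, Matrix.mulVec_single_one] at e1 e2
    have e3 := congrFun (e1.trans e2.symm) r
    exact e3
  -- every element of the closure is related to an element of the permutation group
  have hex : ∀ g ∈ Subgroup.closure G₀, ∃ σ ∈ grp m gB, Rel g σ := by
    intro g hg
    induction hg using Subgroup.closure_induction with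
    | mem x hx =>
      obtain ⟨c, hc, hr⟩ := h1 x hx
      exact ⟨_, permOf_mem_grp hc, hr⟩
    | one => exact ⟨1, Subgroup.one_mem _, rel_one⟩
    | mul x y _ _ hx hy =>
      obtain ⟨σ, hσ, h3⟩ := hx
      obtain ⟨τ, hτ, h4⟩ := hy
      exact ⟨σ * τ, Subgroup.mul_mem _ hσ hτ, rel_mul _ _ _ _ h3 h4⟩
    | inv x _ hx =>
      obtain ⟨σ, hσ, h3⟩ := hx
      exact ⟨σ⁻¹, Subgroup.inv_mem _ hσ, rel_inv _ _ h3⟩
  have hex' : ∀ σ ∈ grp m gB, ∃ g ∈ Subgroup.closure G₀, Rel g σ := by
    intro σ hσ
    induction hσ using Subgroup.closure_induction with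
    | mem x hx =>
      obtain ⟨c, hc, rfl⟩ := hx
      obtain ⟨g, hg, hr⟩ := h2 c hc
      exact ⟨g, Subgroup.subset_closure hg, hr⟩
    | one => exact ⟨1, Subgroup.one_mem _, rel_one⟩
    | mul x y _ _ hx hy =>
      obtain ⟨σ, hσ, h3⟩ := hx
      obtain ⟨τ, hτ, h4⟩ := hy
      exact ⟨σ * τ, Subgroup.mul_mem _ hσ hτ, rel_mul _ _ _ _ h3 h4⟩
    | inv x _ hx =>
      obtain ⟨σ, hσ, h3⟩ := hx
      exact ⟨σ⁻¹, Subgroup.inv_mem _ hσ, rel_inv _ _ h3⟩
  let f : (g : GL ι R) → g ∈ Subgroup.closure G₀ → Perm (Fin m) := fun g hg => Classical.choose (hex g hg)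
  have hf : ∀ g hg, f g hg ∈ grp m gB := fun g hg => (Classical.choose_spec (hex g hg)).1
  have hf' : ∀ g hg, Rel g (f g hg) := fun g hg => (Classical.choose_spec (hex g hg)).2
  refine ⟨MulEquiv.ofBijective (MonoidHom.mk' (fun g : Subgroup.closure G₀ => (⟨f g g.2, hf g g.2⟩ : grp m gB)) ?_) ⟨?_, ?_⟩⟩
  · rintro ⟨x, hx⟩ ⟨y, hy⟩
    apply Subtype.ext
    exact rel_uniq (x * y) _ _ (hf' _ (Subgroup.mul_mem _ hx hy)) (rel_mul _ _ _ _ (hf' x hx) (hf' y hy))
  · rintro ⟨x, hx⟩ ⟨y, hy⟩ he
    apply Subtype.ext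
    have e : f x hx = f y hy := congrArg Subtype.val he
    have h3 := hf' x hx
    rw [e] at h3
    exact rel_ker _ _ _ h3 (hf' y hy)
  · rintro ⟨σ, hσ⟩
    obtain ⟨g, hg, hr⟩ := hex' σ hσ
    refine ⟨⟨g, hg⟩, Subtype.ext ?_⟩
    exact rel_uniq g _ _ (hf' g hg) hr

end matrix

section chev

open Cfsg.Lie Matrix

variable {K F : Type*} [Field K] [Field F] (D : ChevalleyDatum)

lemma xMat_map_ring (f : K →+* F) (r : Fin D.nroots) (t : K) :
    (D.xMat K r t).map f = D.xMat F r (f t) := by
  ext row col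
  rcases col with i | s <;> rcases row with i' | u
  · simp only [Matrix.map_apply, ChevalleyDatum.xMat, Matrix.of_apply]
    split_ifs <;> simp
  · simp only [Matrix.map_apply, ChevalleyDatum.xMat, Matrix.of_apply]
    split_ifs <;> simp
  · simp only [Matrix.map_apply, ChevalleyDatum.xMat, Matrix.of_apply]
    split_ifs <;> simp
  · simp only [Matrix.map_apply, ChevalleyDatum.xMat, Matrix.of_apply]
    split_ifs <;> simp [map_list_sum, List.map_map, Function.comp_def]

/-- Transfer along a field isomorphism. -/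
noncomputable def glRing (φ : K ≃+* F) : GL D.Idx K ≃* GL D.Idx F :=
  Units.mapEquiv (φ.mapMatrix (m := D.Idx)).toMulEquiv

theorem group_map_ring (φ : K ≃+* F) : (D.group K).map (glRing D φ).toMonoidHom = D.group F := by
  apply le_antisymm
  · rw [Subgroup.map_le_iff_le_comap]
    refine (Subgroup.closure_le _).2 ?_
    rintro g ⟨r, t, hg⟩
    refine Subgroup.subset_closure ⟨r, φ t, ?_⟩
    show (g : Matrix D.Idx D.Idx K).map φ = _
    rw [hg]
    exact xMat_map_ring D φ.toRingHom r t
  · refine (Subgroup.closure_le _).2 ?_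
    rintro g ⟨r, t, hg⟩
    refine ⟨(glRing D φ).symm g, Subgroup.subset_closure ⟨r, φ.symm t, ?_⟩, (glRing D φ).apply_symm_apply g⟩
    show (g : Matrix D.Idx D.Idx F).map φ.symm = _
    rw [hg]
    exact xMat_map_ring D φ.symm.toRingHom r t

theorem group_equiv_ring (φ : K ≃+* F) : Nonempty (D.group K ≃* D.group F) :=
  ⟨((glRing D φ).subgroupMap _).trans (MulEquiv.subgroupCongr (group_map_ring D φ))⟩

/-- A Chevalley group permuting a finite set of vectors containing the basis. -/
theorem chev_equiv_grp {R : Type*} [Field R] {m : ℕ} (hm : m ≤ 64) (gB : List ℕ) (S : Fin m → D.Idx → R)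
    (hS : Function.Injective S) (hb : ∀ j, ∃ i, S i = Pi.single j 1) (codeOf : Fin D.nroots → R → ℕ)
    (hc : ∀ r t, codeOf r t ∈ gB)
    (hact : ∀ r t i, D.xMat R r t *ᵥ S i = S (permOf m (codeOf r t) i))
    (hinv : ∀ r t, D.xMat R r t * D.xMat R r (-t) = 1)
    (hsurj : ∀ c ∈ gB, ∃ r t, codeOf r t = c) : Nonempty (D.group R ≃* grp m gB) := by
  refine closure_equiv_grp hm _ gB S hS hb ?_ ?_
  · rintro g ⟨r, t, hg⟩
    refine ⟨_, hc r t, fun i => ?_⟩
    rw [hg]
    exact hact r t i
  · intro c hcB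
    obtain ⟨r, t, rfl⟩ := hsurj c hcB
    refine ⟨⟨D.xMat R r t, D.xMat R r (-t), hinv r t, ?_⟩, ⟨r, t, rfl⟩, fun i => hact r t i⟩
    exact mul_eq_one_comm.mp (hinv r t)

end chev

end Cfsg.Agent.Lib.Piwek
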